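import Cfsg.Agent.Lib.Big.Extra
import Cfsg.Agent.Lib.Chev.WordCheck
import Cfsg.Agent.Lib.Linear.Basic

/-!
# Packed matrices multiplied by root elements

`FP.sp` adds to every column a combination of columns; `FP.xrun` multiplies a packed matrix by a word in root elements.
-/

set_option autoImplicit false

namespace Cfsg.Lib.Big

open Cfsg.Lib.Calc Cfsg.Lib.F2 Cfsg.Lib.Chev Cfsg.Lie Finset Matrix

namespace FP

section
variable {α : Type} (P : FP) (p d : ℕ) (u c : α → ℕ)

/-- A combination of columns. -/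
noncomputable def cmb (D C : ℕ) (l : List α) : ℕ :=
  List.rec (motive := fun _ => ℕ) (nat_lit 0) (fun a _ ih => Nat.add (Nat.mul (c a) (get D C (u a))) ih) l

/-- The combinations `L b` are added to the columns `b < k`. -/
noncomputable def spA (L : ℕ → List α) (D C k : ℕ) : ℕ :=
  Nat.rec (motive := fun _ => ℕ) C (fun b ih => List.rec (motive := fun _ => ℕ) ih
    (fun a l _ => Nat.add (Nat.shiftLeft (cmb u c D C (a :: l)) (Nat.mul D b)) ih) (L b)) k

/-- The combination `L b` is added to the column `b`. -/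
noncomputable def sp (L : ℕ → List α) (C : ℕ) : ℕ :=
  forceN (Nat.mul P.w d) fun D => forceN (Nat.land C (Nat.mul (msk P.e) (onesD P.w (Nat.mul d d)))) fun C' =>
    forceN (spA u c L D C' d) (P.red p (Nat.shiftRight (Nat.succ (Nat.mul d d)) (nat_lit 1)))

variable {P p d u c}

theorem spA_eq (L : ℕ → List α) (D C k : ℕ) : spA u c L D C k = C + pack D (fun b => cmb u c D C (L b)) k := by
  induction k with
  | zero => rfl
  | succ k ih =>
    rw [pack_succ, add_left_comm, ← ih]
    change List.rec (motive := fun _ => ℕ) _ _ (L k) = _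
    cases L k with
    | nil => exact (zero_add _).symm
    | cons a l => exact congrArg (· + _) ((Nat.shiftLeft_eq _ _).trans (mul_comm _ _))

theorem cmb_eq {D C : ℕ} {f : ℕ → ℕ → ℕ} (h : ∀ j, get D C j = pack P.w (f j) d) (l : List α) :
    cmb u c D C l = pack P.w (fun i => (l.map fun a => c a * f (u a) i).sum) d := by
  induction l with
  | nil => simpa [cmb] using pack_sum P.w d 0 fun _ _ => 0
  | cons a l ih =>
    change c a * get D C (u a) + cmb u c D C l = _
    rw [ih, h, mul_pack, pack_add_pack]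
    rfl

theorem dig_sp (h : P.OK p d) {L : ℕ → List α} (hL : ∀ b < d, (L b).length < d) (hc : ∀ a, c a < p) (C : ℕ) {b i : ℕ}
    (hb : b < d) (hi : i < d) : P.dig (P.sp p d u c L C) (d * b + i) = (P.dig C (d * b + i) +
      ((L b).map fun a => c a * if u a < d then P.dig C (d * u a + i) else 0).sum) % p := by
  have hw := h.w_pos
  have he := h.e_le
  have hl : ∀ i, P.dig C i < 2 ^ P.w := fun i =>
    lt_of_lt_of_le (Nat.mod_lt _ (Nat.two_pow_pos _)) (Nat.pow_le_pow_right (by norm_num) he)
  have h1 : 1 ≤ 2 ^ P.e - 1 := by have := h.p_le; have := h.one_lt; omega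
  have e0 : (C >>> 0) &&& (msk P.e * onesD P.w (d * d)) = pack P.w (P.dig C) (d * d) := by
    rw [onesD_eq hw, shift_land_mask (by omega)]
    exact pack_congr fun i _ => by rw [pow_zero, Nat.div_one, dig]
  have e1 : ∀ j, get (P.w * d) (pack P.w (P.dig C) (d * d)) j =
      pack P.w (fun i => if j < d then P.dig C (d * j + i) else 0) d := fun j => by
    refine eq_of_get_eq (get_lt _ _ _) (pack_lt fun _ _ => by split_ifs; exacts [hl _, Nat.two_pow_pos _]) fun i hi => ?_
    rw [← get_get hi, get_pack (fun _ _ => by split_ifs; exacts [hl _, Nat.two_pow_pos _]) hi]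
    split_ifs with hj
    · exact get_pack (fun _ _ => hl _) (lt_mul hj hi)
    · rw [get_eq, Nat.div_eq_of_lt ((pack_lt fun _ _ => hl _).trans_le (Nat.pow_le_pow_right (by norm_num)
        (Nat.mul_le_mul_left _ ((Nat.mul_le_mul_left d (not_lt.1 hj)).trans (Nat.le_add_right _ _))))), Nat.zero_mod]
  have bd : ∀ b < d, ∀ i, (if b < d then P.dig C (d * b + i) else 0) +
      ((L b).map fun a => c a * if u a < d then P.dig C (d * u a + i) else 0).sum < 2 ^ P.w := fun b hb i => by
    refine lt_of_le_of_lt ?_ h.bound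
    have k := List.sum_le_card_nsmul ((L b).map fun a => c a * if u a < d then P.dig C (d * u a + i) else 0)
      ((2 ^ P.e - 1) * (2 ^ P.e - 1)) fun x hx => by
        obtain ⟨a, -, rfl⟩ := List.mem_map.1 hx
        refine Nat.mul_le_mul (Nat.le_sub_one_of_lt ((hc a).trans_le h.p_le)) ?_
        split_ifs
        exacts [dig_le _ _, Nat.zero_le _]
    rw [List.length_map, smul_eq_mul] at k
    rw [if_pos hb, mul_assoc]
    have k2 := (dig_le (P := P) C (d * b + i)).trans (Nat.le_mul_of_pos_left (2 ^ P.e - 1) h1)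
    have k3 := Nat.mul_le_mul_right ((2 ^ P.e - 1) * (2 ^ P.e - 1)) (Nat.succ_le_of_lt (hL b hb))
    rw [Nat.succ_mul] at k3
    omega
  have hlt := lt_mul hb hi
  rw [dig, sp]
  simp only [forceN_eq]
  change get P.w (P.red p ((d * d + 1) >>> 1) (spA u c L (P.w * d)
    ((C >>> 0) &&& (msk P.e * onesD P.w (d * d))) d)) _ % _ = _
  rw [e0, spA_eq, get_red h (by rw [Nat.shiftRight_eq_div_pow]; omega)]
  simp only [cmb_eq e1]
  rw [← pack_get (w := P.w * d) (n := d) (c := pack P.w (P.dig C) (d * d)) (by rw [mul_assoc]; exact pack_lt fun _ _ => hl _),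
    pack_add_pack]
  simp only [e1, pack_add_pack]
  rw [get_get hi, get_pack (fun k hk => pack_lt fun i _ => bd k hk i) hb, get_pack (fun i _ => bd b hb i) hi, if_pos hb,
    Nat.mod_eq_of_lt (lt_of_lt_of_le (Nat.mod_lt _ (by have := h.one_lt; omega)) h.p_le)]

end

variable (P : FP) (p d : ℕ) (D : ChevalleyDatum)

/-- The position of a basis vector. -/
noncomputable def xpos (v : ℕ ⊕ ℕ) : ℕ := Sum.rec (fun i => cond (Nat.blt i D.rank) i d) (fun s => Nat.add D.rank s) v

/-- The basis vector at a position. -/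
def xdec (b : ℕ) : ℕ ⊕ ℕ := cond (Nat.blt b D.rank) (.inl b) (.inr (Nat.sub b D.rank))

/-- A coefficient of a root element. -/
def xco (t : ℕ) (a : (ℕ ⊕ ℕ) × ℤ × ℕ) : ℕ := Int.toNat (Int.emod (Int.mul a.2.1 (Int.ofNat (Nat.pow t a.2.2))) (Int.ofNat p))

/-- Multiplication by a root element. -/
noncomputable def xstep (r t C : ℕ) : ℕ :=
  P.sp p d (fun a => xpos d D a.1) (xco p t) (fun b => (Chev.col D r (xdec D b)).tail) C

/-- Multiplication by a word; `p * r + t` stands for `x_r(t)`. -/
noncomputable def xrun (w : List ℕ) : ℕ → ℕ :=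
  List.rec (motive := fun _ => ℕ → ℕ) (fun C => C) (fun a _ ih C => forceN (Nat.div a p) fun r => forceN (Nat.mod a p) fun t =>
    forceN (cond (Nat.blt r D.nroots) (P.xstep p d D r t C) C) ih) w

variable {P p d D}

/-- The numbering of the basis. -/
def xσ (hd : D.rank + D.nroots = d) : D.Idx ≃ Fin d := finSumFinEquiv.trans (finCongr hd)

theorem xpos_code (hd : D.rank + D.nroots = d) (w : D.Idx) : xpos d D (Chev.code w) = xσ hd w := by
  rcases w with i | s
  · simp [xpos, Chev.code, xσ, Nat.blt_eq.mpr i.2]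
  · simp [xpos, Chev.code, xσ]

theorem xdec_σ (hd : D.rank + D.nroots = d) (w : D.Idx) : xdec D (xσ hd w) = Chev.code w := by
  rcases w with i | s
  · simp [xdec, Chev.code, xσ, Nat.blt_eq.mpr i.2]
  · simp [xdec, Chev.code, xσ, Bool.eq_false_iff.2 (mt Nat.blt_eq.mp (Nat.le_add_right D.rank s).not_gt)]

theorem sum_ind {F : Type*} [Field F] (hd : D.rank + D.nroots = d) (f : ℕ → F) (v : ℕ ⊕ ℕ) :
    ∑ w : D.Idx, f (xσ hd w) * ind F w v = if xpos d D v < d then f (xpos d D v) else 0 := by
  by_cases hv : ∃ w : D.Idx, Chev.code w = v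
  · obtain ⟨w, rfl⟩ := hv
    simp [ind, code_injective.eq_iff, xpos_code hd]
  · rw [sum_eq_zero fun w _ => by rw [ind, if_neg fun e => hv ⟨w, e⟩, mul_zero], if_neg fun k => hv ?_]
    rcases v with i | s
    · by_cases hi : i < D.rank
      · exact ⟨.inl ⟨i, hi⟩, rfl⟩
      · simp [xpos, Bool.eq_false_iff.2 (mt Nat.blt_eq.mp hi)] at k
    · exact ⟨.inr ⟨s, by change D.rank + s < d at k; omega⟩, rfl⟩

theorem col_code (r : ℕ) (w : D.Idx) : Chev.col D r (Chev.code w) = (Chev.code w, 1, 0) :: (Chev.col D r (Chev.code w)).tail := by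
  rcases w with i | s <;> simp only [Chev.col, Chev.code, Sum.map_inl, Sum.map_inr, Nat.blt_eq.mpr (Fin.isLt _), cond_true] <;> rfl

theorem length_col (r : ℕ) (v : ℕ ⊕ ℕ) : (Chev.col D r v).tail.length ≤ D.rank + 3 := by
  have h1 : ∀ k, (hList D r k).length = k := fun k => by
    induction k with
    | zero => rfl
    | succ k ih => exact congrArg Nat.succ ih
  have h2 : ∀ L k, (chList L k).length = L.length := fun L => by
    induction L with
    | nil => exact fun _ => rfl
    | cons a L ih => exact fun k => congrArg Nat.succ (ih _)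
  have h3 : ∀ k c, (decL k c).length ≤ k := fun k => by
    induction k with
    | zero => exact fun _ => le_rfl
    | succ k ih => exact fun c => by rw [decL_succ]; cases Nat.beq c 0; exacts [Nat.succ_le_succ (ih _), Nat.zero_le _]
  rcases v with i | s
  · simp only [Chev.col]; cases Nat.blt i D.rank <;> simp
  · have := h3 3 (t36 (encRow (row D r)) s)
    simp only [Chev.col]
    cases Nat.blt s D.nroots <;> cases Nat.beq s r <;> cases Nat.beq s (ngN D r) <;> simp [h1, h2, ceF]
    omega

variable [Fact p.Prime]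

theorem toM_xstep (h : P.OK p d) (hd : D.rank + D.nroots = d) (h3 : 3 < D.nroots) {r : Fin D.nroots} (hr : RowOK D r)
    (t C : ℕ) : P.toM p d (P.xstep p d D r t C) = P.toM p d C * reindex (xσ hd) (xσ hd) (D.xMat (ZMod p) r t) := by
  have hp : (0 : ℤ) < p := by have := h.one_lt; omega
  ext i b
  obtain ⟨w₀, rfl⟩ := (xσ hd).surjective b
  rw [toM, of_apply, xstep, dig_sp h (fun b _ => (length_col _ _).trans_lt (by omega)) (fun a => by
    have := Int.emod_lt_of_pos (a.2.1 * (t ^ a.2.2 : ℕ)) hp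
    exact (Int.toNat_lt (Int.emod_nonneg _ hp.ne')).2 this) C (xσ hd w₀).2 i.2, ZMod.natCast_mod, mul_apply,
    ← (xσ hd).sum_comp, xdec_σ]
  simp only [reindex_apply, submatrix_apply, Equiv.symm_apply_apply, xMat_apply hr, toM, of_apply]
  have key : ∀ L : List ((ℕ ⊕ ℕ) × ℤ × ℕ), ∑ w : D.Idx, (P.dig C (d * xσ hd w + i) : ZMod p) * evc (t : ZMod p) w L =
      ((L.map fun a => xco p t a * if xpos d D a.1 < d then P.dig C (d * xpos d D a.1 + i) else 0).sum : ℕ) := fun L => by
    induction L with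
    | nil => simp [evc_nil]
    | cons a L ih =>
      have e : (xco p t a : ZMod p) = a.2.1 * t ^ a.2.2 := by
        rw [← Int.cast_natCast, show xco p t a = (a.2.1 * (t ^ a.2.2 : ℕ) % p).toNat from rfl,
          Int.toNat_of_nonneg (Int.emod_nonneg _ hp.ne')]
        exact (ZMod.intCast_mod _ p).trans (by push_cast; rfl)
      simp only [evc_cons, mul_add, sum_add_distrib, ih, List.map_cons, List.sum_cons, Nat.cast_add, Nat.cast_mul, e,
        mul_left_comm _ (_ * _), ← mul_sum, sum_ind hd fun j => (P.dig C (d * j + i) : ZMod p), Nat.cast_ite, Nat.cast_zero]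
  conv_rhs => rw [col_code]
  simp only [evc_cons, mul_add, sum_add_distrib, key, Int.cast_one, pow_zero, one_mul,
    sum_ind hd fun j => (P.dig C (d * j + i) : ZMod p), xpos_code hd, Fin.is_lt, if_true, Nat.cast_add]

theorem toM_xrun (h : P.OK p d) (hd : D.rank + D.nroots = d) (h3 : 3 < D.nroots) (hD : ∀ r < D.nroots, RowOK D r)
    (w : List ℕ) (C : ℕ) : P.toM p d (P.xrun p d D w C) = P.toM p d C * reindex (xσ hd) (xσ hd)
      (D.wordMat (ZMod p) (w.map fun a => (a / p, ((a % p : ℕ) : ZMod p)))) := by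
  induction w generalizing C with
  | nil => simp [xrun, wordMat_nil]
  | cons a w ih =>
    change P.toM p d (forceN (a / p) fun r => forceN (a % p) fun t =>
      forceN (cond (Nat.blt r D.nroots) (P.xstep p d D r t C) C) (P.xrun p d D w)) = _
    simp only [forceN_eq]
    rw [ih, List.map_cons, wordMat_cons, ChevalleyDatum.x]
    split_ifs with ha
    · rw [Nat.blt_eq.mpr ha, cond_true, toM_xstep h hd h3 (r := ⟨_, ha⟩) (hD _ ha), mul_assoc]
      simp [submatrix_mul_equiv]
    · rw [Bool.eq_false_iff.2 (mt Nat.blt_eq.mp ha), cond_false, one_mul]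

end FP

theorem wordMat_mem (D : ChevalleyDatum) {F : Type*} [Field F] (w : List (ℕ × F)) (g : GL D.Idx F)
    (e : g.1 = D.wordMat F w) : g ∈ D.group F := by
  induction w generalizing g with
  | nil => exact (Units.ext e : g = 1) ▸ one_mem _
  | cons a w ih =>
    have k := g.isUnit
    rw [e, wordMat_cons, isUnit_iff_isUnit_det, det_mul, IsUnit.mul_iff, ← isUnit_iff_isUnit_det,
      ← isUnit_iff_isUnit_det] at k
    obtain ⟨⟨x, hx⟩, y, hy⟩ := k
    rw [show g = x * y from Units.ext (by rw [e, wordMat_cons, Units.val_mul, hx, hy])]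
    refine mul_mem ?_ (ih y hy)
    rw [ChevalleyDatum.x] at hx
    split_ifs at hx
    exacts [Subgroup.subset_closure ⟨_, _, hx⟩, (Units.ext hx : x = 1) ▸ one_mem _]

/-- A conjugate of the group generated by packed matrices lies in a Chevalley group. -/
theorem FP.exists_chev {P : FP} {p d : ℕ} [Fact p.Prime] {D : ChevalleyDatum} (h : P.OK p d) (hd : D.rank + D.nroots = d)
    (h3 : 3 < D.nroots) (hD : ∀ r < D.nroots, RowOK D r) {B B' : ℕ} (hB : P.pp p d d B' B = P.one d) {L : List ℕ}
    (hL : ∀ C ∈ L, ∃ w, P.xrun p d D w (P.pp p d d B' (P.pp p d d C B)) = P.one d) :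
    ∃ f : gen (P.R p d) L →* D.group (ZMod p), Function.Injective f := by
  obtain ⟨b, hb⟩ := FP.exists_R h hB
  have A := (FP.act h).toLaws
  have hb' : P.R p d b⁻¹ B := A.inv hb hB
  let φ : GL (Fin d) (ZMod p) ≃* GL D.Idx (ZMod p) :=
    (MulAut.conj b).trans (Linear.congrGL (FP.xσ hd).symm (.refl _))
  have k : gen (P.R p d) L ≤ (D.group (ZMod p)).comap φ.toMonoidHom := (Subgroup.closure_le _).2 fun g ⟨C, hC, hg⟩ => by
    obtain ⟨w, hw⟩ := hL C hC
    have e := FP.toM_xrun h hd h3 hD w (P.pp p d d B' (P.pp p d d C B))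
    rw [hw, FP.toM_one h, ← show _ = P.toM p d (P.pp p d d B' (P.pp p d d C B)) from A.mul hb (A.mul hg hb')] at e
    refine (inv_mem_iff (x := φ g)).1 (wordMat_mem D (w.map fun a => (a / p, ((a % p : ℕ) : ZMod p))) (φ g)⁻¹
      (Units.inv_eq_of_mul_eq_one_right ?_))
    apply (reindexAlgEquiv (ZMod p) (ZMod p) (FP.xσ hd)).injective
    rw [map_mul, map_one, e]
    simp [φ, mul_assoc]
  exact ⟨(φ.toMonoidHom.comp (Subgroup.subtype _)).codRestrict _ fun g => k g.2,
    (MonoidHom.injective_codRestrict _ _ _).2 (φ.injective.comp Subtype.val_injective)⟩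

end Cfsg.Lib.Big
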